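import Mathlib
import Cfsg.Prelude.Def_Classical
import Cfsg.Agent.Lib.Helper45.OrthZeros
import Cfsg.Agent.Lib.Helper43.OrthMinus
import Cfsg.Agent.Lib.Helper73.DihedralIso

set_option autoImplicit false

namespace Cfsg.Agent.Lib.Helper45

open Matrix

section Reindex

variable {F : Type*} [Field F]

theorem mem_isometryGroup_iff {ι : Type} [Fintype ι] [DecidableEq ι] (Q : (ι → F) → F)
    (g : GL ι F) : g ∈ Cfsg.isometryGroup F Q ↔ ∀ u, Q ((g : Matrix ι ι F) *ᵥ u) = Q u := by
  constructor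
  · intro h u
    exact h u u
  · intro h u _
    exact h u

/-- Reindexing the coordinates gives an isomorphic isometry group. -/
theorem isometryGroup_reindex {ι ι' : Type} [Fintype ι] [DecidableEq ι] [Fintype ι']
    [DecidableEq ι'] (e : ι ≃ ι') (Q : (ι → F) → F) (Q' : (ι' → F) → F)
    (h : ∀ v, Q' v = Q (fun i => v (e i))) :
    Nonempty (Cfsg.isometryGroup F Q ≃* Cfsg.isometryGroup F Q') := by
  let φ : GL ι F ≃* GL ι' F := Units.mapEquiv (Matrix.reindexAlgEquiv F F e).toMulEquiv
  have hmat : ∀ g' : GL ι' F, ((φ.symm g' : GL ι F) : Matrix ι ι F) =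
      (g' : Matrix ι' ι' F).submatrix e e := fun g' => rfl
  have hmap : (Cfsg.isometryGroup F Q).map φ.toMonoidHom = Cfsg.isometryGroup F Q' := by
    ext g'
    rw [Subgroup.mem_map_equiv, mem_isometryGroup_iff, mem_isometryGroup_iff, hmat]
    constructor
    · intro hg u
      have h1 := hg (fun i => u (e i))
      rw [Matrix.submatrix_mulVec_equiv] at h1
      rw [h, h, ← h1]
      congr 1
      funext i
      simp [Function.comp_def]
    · intro hg u
      rw [Matrix.submatrix_mulVec_equiv]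
      have h1 := hg (u ∘ e.symm)
      rw [h, h] at h1
      have e1 : (fun i => (u ∘ e.symm) (e i)) = u := by funext i; simp
      rw [e1] at h1
      rw [← h1]
      rfl
  exact ⟨(φ.subgroupMap (Cfsg.isometryGroup F Q)).trans (MulEquiv.subgroupCongr hmap)⟩

end Reindex

section Bin

variable {F : Type*} [Field F] (a b : F)

/-- The matrix of "multiplication by `z`" in the quadratic algebra of the binary form. -/
def binMat (z : Fin 2 → F) : Matrix (Fin 2) (Fin 2) F := !![z 0, -b * z 1; z 1, z 0 + a * z 1]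

theorem rBin_mulVec (M : Matrix (Fin 2) (Fin 2) F) (w : Fin 2 → F) :
    rBin a b (M *ᵥ w) = (M 0 0 * w 0 + M 0 1 * w 1) ^ 2 +
      a * (M 0 0 * w 0 + M 0 1 * w 1) * (M 1 0 * w 0 + M 1 1 * w 1) +
      b * (M 1 0 * w 0 + M 1 1 * w 1) ^ 2 := by
  simp [rBin, Matrix.mulVec, dotProduct, Fin.sum_univ_two]

theorem rBin_binMat (z w : Fin 2 → F) :
    rBin a b (binMat a b z *ᵥ w) = rBin a b z * rBin a b w := by
  rw [rBin_mulVec]
  simp only [binMat, rBin, Matrix.of_apply, Matrix.cons_val', Matrix.cons_val_zero,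
    Matrix.cons_val_one, Matrix.cons_val_fin_one]
  ring

theorem det_binMat (z : Fin 2 → F) : (binMat a b z).det = rBin a b z := by
  simp only [binMat, Matrix.det_fin_two, rBin, Matrix.of_apply, Matrix.cons_val', Matrix.cons_val_zero,
    Matrix.cons_val_one, Matrix.cons_val_fin_one]
  ring

/-- The companion matrix of `X² - aX + b` as an invertible matrix. -/
noncomputable def thetaU (hb : b ≠ 0) : GL (Fin 2) F :=
  Matrix.GeneralLinearGroup.mkOfDetNeZero !![0, -b; 1, a] (by
    simp only [Matrix.det_fin_two, Matrix.of_apply, Matrix.cons_val', Matrix.cons_val_zero,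
      Matrix.cons_val_one, Matrix.cons_val_fin_one]
    intro h
    apply hb
    linear_combination h)

theorem thetaU_val (hb : b ≠ 0) :
    ((thetaU a b hb : GL (Fin 2) F) : Matrix (Fin 2) (Fin 2) F) = !![0, -b; 1, a] := rfl

/-- The rotation subgroup: isometries commuting with the companion matrix. -/
noncomputable def binRot (hb : b ≠ 0) : Subgroup (Cfsg.isometryGroup F (rBin a b)) :=
  (Subgroup.centralizer {thetaU a b hb}).subgroupOf (Cfsg.isometryGroup F (rBin a b))

theorem mem_binRot_iff (hb : b ≠ 0) (g : Cfsg.isometryGroup F (rBin a b)) :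
    g ∈ binRot a b hb ↔ (g.1 : Matrix (Fin 2) (Fin 2) F) 0 1 = -b * (g.1 : Matrix (Fin 2) (Fin 2) F) 1 0 ∧
      (g.1 : Matrix (Fin 2) (Fin 2) F) 1 1 =
        (g.1 : Matrix (Fin 2) (Fin 2) F) 0 0 + a * (g.1 : Matrix (Fin 2) (Fin 2) F) 1 0 := by
  unfold binRot
  rw [Subgroup.mem_subgroupOf, Subgroup.mem_centralizer_iff]
  constructor
  · intro h
    have h1 := h _ (Set.mem_singleton _)
    have h2 : ((thetaU a b hb : GL (Fin 2) F) : Matrix (Fin 2) (Fin 2) F) *
        (g.1 : Matrix (Fin 2) (Fin 2) F) =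
        (g.1 : Matrix (Fin 2) (Fin 2) F) * ((thetaU a b hb : GL (Fin 2) F) : Matrix (Fin 2) (Fin 2) F) := by
      rw [← Units.val_mul, ← Units.val_mul, h1]
    rw [thetaU_val] at h2
    have h00 := congrFun (congrFun h2 0) 0
    have h10 := congrFun (congrFun h2 1) 0
    simp only [Matrix.mul_apply, Fin.sum_univ_two, Matrix.of_apply, Matrix.cons_val',
      Matrix.cons_val_zero, Matrix.cons_val_one, Matrix.cons_val_fin_one] at h00 h10
    constructor
    · linear_combination -h00
    · linear_combination -h10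
  · rintro ⟨h01, h11⟩ x hx
    rw [Set.mem_singleton_iff] at hx
    subst hx
    apply Units.ext
    rw [Units.val_mul, Units.val_mul, thetaU_val]
    ext i j
    fin_cases i <;> fin_cases j <;>
      simp only [Matrix.mul_apply, Fin.sum_univ_two, Matrix.of_apply, Matrix.cons_val',
        Matrix.cons_val_zero, Matrix.cons_val_one, Matrix.cons_val_fin_one, Fin.zero_eta,
        Fin.mk_one]
    · linear_combination -h01
    · linear_combination (-b) * h11 - a * h01
    · linear_combination -h11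
    · linear_combination h01

/-- The first column of an isometry has norm one. -/
theorem rBin_col (g : Cfsg.isometryGroup F (rBin a b)) :
    rBin a b ![(g.1 : Matrix (Fin 2) (Fin 2) F) 0 0, (g.1 : Matrix (Fin 2) (Fin 2) F) 1 0] = 1 := by
  have h := (mem_isometryGroup_iff (rBin a b) g.1).mp g.2 ![1, 0]
  rw [rBin_mulVec] at h
  simp only [rBin, Matrix.cons_val_zero, Matrix.cons_val_one, Matrix.cons_val_fin_one] at h ⊢
  linear_combination h

theorem binPsi_mul {K : Type*} [Field K] (f : F →+* K) (θ : K) (hθ : θ ^ 2 = f a * θ - f b)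
    (M N : Matrix (Fin 2) (Fin 2) F)
    (hM : M 0 1 = -b * M 1 0 ∧ M 1 1 = M 0 0 + a * M 1 0) :
    f ((M * N) 0 0) + f ((M * N) 1 0) * θ =
      (f (M 0 0) + f (M 1 0) * θ) * (f (N 0 0) + f (N 1 0) * θ) := by
  simp only [Matrix.mul_apply, Fin.sum_univ_two, hM.1, hM.2, map_add, map_mul, map_neg]
  linear_combination (-(f (M 1 0) * f (N 1 0))) * hθ

theorem binPsi_inj {K : Type*} [Field K] (f : F →+* K) (θ : K) (hθ : θ ^ 2 = f a * θ - f b)
    (hab : ∀ z₁ z₂ : F, z₁ ^ 2 + a * z₁ * z₂ + b * z₂ ^ 2 = 0 → z₁ = 0 ∧ z₂ = 0)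
    (p s p' s' : F) (h : f p + f s * θ = f p' + f s' * θ) : p = p' ∧ s = s' := by
  by_cases hs : s = s'
  · subst hs
    refine ⟨?_, rfl⟩
    apply f.injective
    linear_combination h
  · exfalso
    have hs' : s - s' ≠ 0 := sub_ne_zero.mpr hs
    have hfs : f (s - s') ≠ 0 := (map_ne_zero f).mpr hs'
    have hθt : θ = f (-(p - p') / (s - s')) := by
      rw [map_div₀, eq_div_iff hfs, map_neg, map_sub, map_sub]
      linear_combination h
    have h0 : f ((-(p - p') / (s - s')) ^ 2 - a * (-(p - p') / (s - s')) + b) = 0 := by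
      rw [map_add, map_sub, map_pow, map_mul, ← hθt]
      linear_combination hθ
    have h1 := (map_eq_zero f).mp h0
    have h2 := hab (-(-(p - p') / (s - s'))) 1 (by linear_combination h1)
    exact one_ne_zero h2.2

end Bin

section BinCyclic

variable {F : Type*} [Field F] [Fintype F] (a b : F)

theorem binRot_ext (hb : b ≠ 0) (g h : binRot a b hb)
    (h0 : (g.1.1 : Matrix (Fin 2) (Fin 2) F) 0 0 = (h.1.1 : Matrix (Fin 2) (Fin 2) F) 0 0)
    (h1 : (g.1.1 : Matrix (Fin 2) (Fin 2) F) 1 0 = (h.1.1 : Matrix (Fin 2) (Fin 2) F) 1 0) :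
    g = h := by
  have hg := (mem_binRot_iff a b hb g.1).mp g.2
  have hh := (mem_binRot_iff a b hb h.1).mp h.2
  apply Subtype.ext
  apply Subtype.ext
  apply Units.ext
  ext i j
  fin_cases i <;> fin_cases j
  · exact h0
  · show (g.1.1 : Matrix (Fin 2) (Fin 2) F) 0 1 = (h.1.1 : Matrix (Fin 2) (Fin 2) F) 0 1
    rw [hg.1, hh.1, h1]
  · exact h1
  · show (g.1.1 : Matrix (Fin 2) (Fin 2) F) 1 1 = (h.1.1 : Matrix (Fin 2) (Fin 2) F) 1 1
    rw [hg.2, hh.2, h0, h1]

theorem binRot_isCyclic
    (hab : ∀ z₁ z₂ : F, z₁ ^ 2 + a * z₁ * z₂ + b * z₂ ^ 2 = 0 → z₁ = 0 ∧ z₂ = 0) (hb : b ≠ 0) :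
    IsCyclic (binRot a b hb) := by
  classical
  obtain ⟨θ, hθ⟩ := IsAlgClosed.exists_root
    (Polynomial.C (1 : AlgebraicClosure F) * Polynomial.X ^ 2 +
      Polynomial.C (-(algebraMap F (AlgebraicClosure F) a)) * Polynomial.X +
      Polynomial.C (algebraMap F (AlgebraicClosure F) b))
    (by rw [Polynomial.degree_quadratic one_ne_zero]; norm_num)
  have hθ' : θ ^ 2 = algebraMap F (AlgebraicClosure F) a * θ -
      algebraMap F (AlgebraicClosure F) b := by
    simp only [Polynomial.IsRoot, Polynomial.eval_add, Polynomial.eval_mul, Polynomial.eval_C,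
      Polynomial.eval_pow, Polynomial.eval_X] at hθ
    linear_combination hθ
  let ψ : binRot a b hb →* AlgebraicClosure F :=
    { toFun := fun g => algebraMap F (AlgebraicClosure F) ((g.1.1 : Matrix (Fin 2) (Fin 2) F) 0 0) +
        algebraMap F (AlgebraicClosure F) ((g.1.1 : Matrix (Fin 2) (Fin 2) F) 1 0) * θ
      map_one' := by
        show algebraMap F (AlgebraicClosure F) ((1 : Matrix (Fin 2) (Fin 2) F) 0 0) +
          algebraMap F (AlgebraicClosure F) ((1 : Matrix (Fin 2) (Fin 2) F) 1 0) * θ = 1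
        simp
      map_mul' := by
        intro g h
        exact binPsi_mul a b (algebraMap F (AlgebraicClosure F)) θ hθ' _ _
          ((mem_binRot_iff a b hb g.1).mp g.2) }
  apply isCyclic_of_subgroup_isDomain ψ
  intro g h hgh
  have := binPsi_inj a b (algebraMap F (AlgebraicClosure F)) θ hθ' hab _ _ _ _ hgh
  exact binRot_ext a b hb g h this.1 this.2

theorem card_binRot
    (hab : ∀ z₁ z₂ : F, z₁ ^ 2 + a * z₁ * z₂ + b * z₂ ^ 2 = 0 → z₁ = 0 ∧ z₂ = 0) (hb : b ≠ 0) :
    Nat.card (binRot a b hb) = Fintype.card F + 1 := by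
  classical
  have hlevel : Nat.card {z : Fin 2 → F // rBin a b z = 1} = Fintype.card F + 1 := by
    have hnd := Cfsg.Agent.Lib.Helper43.nondeg_qBin a b (Cfsg.Agent.Lib.Helper43.disc_ne_zero a b hab)
    have hV : Fintype.card (Fin 2 → F) = Fintype.card F * Fintype.card F := by
      rw [Fintype.card_fun, Fintype.card_fin, pow_two]
    have h := Cfsg.Agent.Lib.Helper43.card_level_aniso (Cfsg.Agent.Lib.Helper43.qBin a b) hnd hV
      (Cfsg.Agent.Lib.Helper43.zeros_qBin a b hab) 1 one_ne_zero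
    have e : Nat.card {z : Fin 2 → F // rBin a b z = 1} =
        Nat.card {z : Fin 2 → F // Cfsg.Agent.Lib.Helper43.qBin a b z = 1} := by
      refine Nat.card_congr (Equiv.subtypeEquivRight ?_)
      intro z
      rw [Cfsg.Agent.Lib.Helper43.qBin_apply]
      unfold rBin
      constructor <;> intro h <;> linear_combination h
    rw [e, Nat.card_eq_fintype_card, Fintype.card_subtype]
    convert h
  rw [← hlevel]
  refine Nat.card_congr (Equiv.ofBijective
    (fun g : binRot a b hb => (⟨![(g.1.1 : Matrix (Fin 2) (Fin 2) F) 0 0,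
      (g.1.1 : Matrix (Fin 2) (Fin 2) F) 1 0], rBin_col a b g.1⟩ :
      {z : Fin 2 → F // rBin a b z = 1})) ⟨?_, ?_⟩)
  · intro g h hgh
    have h1 := congrArg Subtype.val hgh
    have h2 := congrFun h1 0
    have h3 := congrFun h1 1
    exact binRot_ext a b hb g h h2 h3
  · rintro ⟨z, hz⟩
    have hdet : (binMat a b z).det ≠ 0 := by
      rw [det_binMat, hz]; exact one_ne_zero
    have hmem : Matrix.GeneralLinearGroup.mkOfDetNeZero (binMat a b z) hdet ∈
        Cfsg.isometryGroup F (rBin a b) := by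
      rw [mem_isometryGroup_iff]
      intro u
      show rBin a b (binMat a b z *ᵥ u) = rBin a b u
      rw [rBin_binMat, hz, one_mul]
    have hrot : (⟨Matrix.GeneralLinearGroup.mkOfDetNeZero (binMat a b z) hdet, hmem⟩ :
        Cfsg.isometryGroup F (rBin a b)) ∈ binRot a b hb := by
      rw [mem_binRot_iff]
      show (binMat a b z) 0 1 = -b * (binMat a b z) 1 0 ∧
        (binMat a b z) 1 1 = (binMat a b z) 0 0 + a * (binMat a b z) 1 0
      simp [binMat]
    refine ⟨⟨_, hrot⟩, ?_⟩
    apply Subtype.ext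
    show ![(binMat a b z) 0 0, (binMat a b z) 1 0] = z
    funext i
    fin_cases i <;> simp [binMat]

/-- The isometry group of an anisotropic binary form is dihedral. -/
theorem binary_dihedral
    (hab : ∀ z₁ z₂ : F, z₁ ^ 2 + a * z₁ * z₂ + b * z₂ ^ 2 = 0 → z₁ = 0 ∧ z₂ = 0) {q : ℕ}
    (hF : Fintype.card F = q)
    (hcard : Nat.card (Cfsg.isometryGroup F (rBin a b)) = 2 * (q + 1)) :
    Nonempty (Cfsg.isometryGroup F (rBin a b) ≃* DihedralGroup (q + 1)) := by
  classical
  have hb : b ≠ 0 := by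
    intro h0
    have := hab 0 1 (by rw [h0]; ring)
    exact one_ne_zero this.2
  haveI := binRot_isCyclic a b hab hb
  obtain ⟨gA, hgA⟩ := IsCyclic.exists_generator (α := binRot a b hb)
  have hord : orderOf gA = q + 1 := by
    rw [orderOf_eq_card_of_forall_mem_zpowers hgA, card_binRot a b hab hb, hF]
  have hordA : orderOf (gA.1) = q + 1 := by
    rw [Subgroup.orderOf_coe]; exact hord
  have hrel := (mem_binRot_iff a b hb gA.1).mp gA.2
  have hcol := rBin_col a b gA.1
  have hBdet : (!![1, a; 0, -1] : Matrix (Fin 2) (Fin 2) F).det ≠ 0 := by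
    simp [Matrix.det_fin_two]
  have hBmem : Matrix.GeneralLinearGroup.mkOfDetNeZero (!![1, a; 0, -1] : Matrix (Fin 2) (Fin 2) F)
      hBdet ∈ Cfsg.isometryGroup F (rBin a b) := by
    rw [mem_isometryGroup_iff]
    intro u
    show rBin a b ((!![1, a; 0, -1] : Matrix (Fin 2) (Fin 2) F) *ᵥ u) = rBin a b u
    rw [rBin_mulVec]
    simp only [rBin, Matrix.of_apply, Matrix.cons_val', Matrix.cons_val_zero,
      Matrix.cons_val_one, Matrix.cons_val_fin_one]
    ring
  have hB2 : (⟨_, hBmem⟩ : Cfsg.isometryGroup F (rBin a b)) ^ 2 = 1 := by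
    apply Subtype.ext
    apply Units.ext
    show (!![1, a; 0, -1] : Matrix (Fin 2) (Fin 2) F) ^ 2 = 1
    rw [pow_two]
    ext i j
    fin_cases i <;> fin_cases j <;> simp [Matrix.mul_apply, Fin.sum_univ_two]
  have hBinv : (⟨_, hBmem⟩ : Cfsg.isometryGroup F (rBin a b))⁻¹ = ⟨_, hBmem⟩ :=
    inv_eq_of_mul_eq_one_right (by rw [← pow_two]; exact hB2)
  have hba : (⟨_, hBmem⟩ : Cfsg.isometryGroup F (rBin a b)) * gA.1 *
      (⟨_, hBmem⟩ : Cfsg.isometryGroup F (rBin a b))⁻¹ = (gA.1)⁻¹ := by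
    rw [hBinv]
    apply eq_inv_of_mul_eq_one_left
    apply Subtype.ext
    apply Units.ext
    show (!![1, a; 0, -1] : Matrix (Fin 2) (Fin 2) F) * (gA.1.1 : Matrix (Fin 2) (Fin 2) F) *
      (!![1, a; 0, -1] : Matrix (Fin 2) (Fin 2) F) * (gA.1.1 : Matrix (Fin 2) (Fin 2) F) = 1
    simp only [rBin, Matrix.cons_val_zero, Matrix.cons_val_one, Matrix.cons_val_fin_one] at hcol
    ext i j
    fin_cases i <;> fin_cases j <;>
      simp only [Matrix.mul_apply, Fin.sum_univ_two, Matrix.of_apply, Matrix.cons_val',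
        Matrix.cons_val_zero, Matrix.cons_val_one, Matrix.cons_val_fin_one, Fin.zero_eta,
        Fin.mk_one, hrel.1, hrel.2, Matrix.one_apply_eq, Matrix.one_apply_ne, ne_eq,
        zero_ne_one, one_ne_zero, not_false_eq_true]
    · linear_combination hcol
    · ring
    · ring
    · linear_combination hcol
  have hbA : (⟨_, hBmem⟩ : Cfsg.isometryGroup F (rBin a b)) ∉ Subgroup.zpowers gA.1 := by
    intro hmem
    have hin : (⟨_, hBmem⟩ : Cfsg.isometryGroup F (rBin a b)) ∈ binRot a b hb :=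
      (Subgroup.zpowers_le.mpr gA.2) hmem
    rw [mem_binRot_iff] at hin
    obtain ⟨h1, h2⟩ := hin
    have h1' : a = -b * 0 := h1
    have h2' : (-1 : F) = 1 + a * 0 := h2
    exact Cfsg.Agent.Lib.Helper43.disc_ne_zero a b hab (by linear_combination (-2 * b) * h2' - a * h1')
  exact Cfsg.Agent.Lib.Helper73.nonempty_mulEquiv_dihedralGroup (q + 1) gA.1 _ hordA hB2 hba hbA hcard

end BinCyclic

end Cfsg.Agent.Lib.Helper45
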