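import Mathlib
import Cfsg.Agent.Lib.Helper45.HigUniq

set_option autoImplicit false

namespace Cfsg.Agent.Lib.Helper45.Hig

open Cfsg.Agent.Lib.Helper21.Suz2

universe u

/-- An abelian group of exponent dividing `2ⁿ` with at most four elements of order at most two
has order at most `4ⁿ`. -/
theorem ab_card_bound : ∀ (n : ℕ) (A : Type u) [CommGroup A] [Finite A],
    (∀ a : A, a ^ (2 ^ n) = 1) → Nat.card {a : A // a * a = 1} ≤ 4 → Nat.card A ≤ 4 ^ n := by
  intro n
  induction n with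
  | zero =>
    intro A _ _ h1 _
    have h : ∀ a : A, a = 1 := fun a => by simpa using h1 a
    haveI : Subsingleton A := ⟨fun a b => by rw [h a, h b]⟩
    rw [pow_zero]
    exact Finite.card_le_one_iff_subsingleton.mpr inferInstance
  | succ n ih =>
    intro A _ _ h1 h4
    obtain ⟨σ, hσ⟩ : ∃ σ : A →* A, ∀ a, σ a = a * a := ⟨powMonoidHom 2, fun a => pow_two a⟩
    have hker : Nat.card σ.ker ≤ 4 := by
      refine le_trans (le_of_eq ?_) h4
      apply Nat.card_congr
      exact Equiv.subtypeEquivRight (fun a => by rw [MonoidHom.mem_ker, hσ])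
    have hR1 : ∀ r : σ.range, r ^ (2 ^ n) = 1 := by
      rintro ⟨r, a, rfl⟩
      apply Subtype.ext
      show (σ a) ^ (2 ^ n) = 1
      rw [hσ, ← pow_two, ← pow_mul, ← pow_succ']
      exact h1 a
    have hR4 : Nat.card {r : σ.range // r * r = 1} ≤ 4 := by
      refine le_trans ?_ h4
      apply Nat.card_le_card_of_injective
        (fun r : {r : σ.range // r * r = 1} =>
          (⟨r.1.1, congrArg Subtype.val r.2⟩ : {a : A // a * a = 1}))
      intro r s hrs
      apply Subtype.ext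
      apply Subtype.ext
      have h5 := congrArg Subtype.val hrs
      exact h5
    have hR := ih σ.range hR1 hR4
    have h2 := Subgroup.card_eq_card_quotient_mul_card_subgroup σ.ker
    have h3 : Nat.card (A ⧸ σ.ker) = Nat.card σ.range :=
      Nat.card_congr (QuotientGroup.quotientKerEquivRange σ).toEquiv
    rw [h2, h3, pow_succ]
    exact Nat.mul_le_mul hR hker

/-- The unique involution of a cyclic 2-group. -/
theorem cyc_invol {T : Type*} [Group T] (x : T) (n' : ℕ) (hx : orderOf x = 2 ^ (n' + 1)) (e : ℕ)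
    (h1 : x ^ e ≠ 1) (h2 : x ^ e * x ^ e = 1) : x ^ e = x ^ (2 ^ n') := by
  have h3 : x ^ (2 * e) = 1 := by rw [two_mul, pow_add]; exact h2
  have h4 : 2 ^ (n' + 1) ∣ 2 * e := by rw [← hx]; exact orderOf_dvd_of_pow_eq_one h3
  rw [pow_succ'] at h4
  have h5 : 2 ^ n' ∣ e := (Nat.mul_dvd_mul_iff_left (by norm_num)).mp h4
  obtain ⟨c, rfl⟩ := h5
  have hs : (x ^ (2 ^ n')) ^ 2 = 1 := by
    rw [← pow_mul, ← pow_succ, ← hx]; exact pow_orderOf_eq_one x
  rw [pow_mul] at h1 ⊢
  rw [pow_eq_pow_mod c hs] at h1 ⊢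
  rcases Nat.mod_two_eq_zero_or_one c with hc | hc
  · rw [hc, pow_zero] at h1; exact absurd rfl h1
  · rw [hc, pow_one]

/-- In a type with four elements one can avoid any three given ones. -/
theorem avoid3 {α : Type*} (hα : Nat.card α = 4) (a b c : α) :
    ∃ e : α, e ≠ a ∧ e ≠ b ∧ e ≠ c := by
  classical
  haveI : Finite α := Nat.finite_of_card_ne_zero (by omega)
  letI := Fintype.ofFinite α
  by_contra hcon
  push Not at hcon
  have hsub : (Finset.univ : Finset α) ⊆ {a, b, c} := by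
    intro e _
    by_cases h1 : e = a
    · simp [h1]
    by_cases h2 : e = b
    · simp [h2]
    have := hcon e h1 h2
    simp [this]
  have h1 := Finset.card_le_card hsub
  have h2 : ({a, b, c} : Finset α).card ≤ 3 := Finset.card_le_three
  rw [Finset.card_univ, ← Nat.card_eq_fintype_card, hα] at h1
  omega

/-- The involutions are the orbit of any one of them. -/
theorem orbit3 {T : Type u} [Group T] (hcard : Nat.card {x : T // x * x = 1} = 4)
    (ψ : MulAut T) (x : T) (hx1 : x ≠ 1) (hx2 : x * x = 1) (h1 : ψ x ≠ x)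
    (h2 : ψ (ψ x) ≠ x) (y : T) (hy : y * y = 1) :
    y = 1 ∨ y = x ∨ y = ψ x ∨ y = ψ (ψ x) := by
  have hψ1 : ∀ y : T, y ≠ 1 → ψ y ≠ 1 := fun y hy e => hy ((map_eq_one_iff ψ ψ.injective).mp e)
  have hψ2 : ∀ y : T, y * y = 1 → ψ y * ψ y = 1 := fun y hy => by rw [← map_mul, hy, map_one]
  have h4 := four_exhaust hcard ⟨1, mul_one 1⟩ ⟨x, hx2⟩ ⟨ψ x, hψ2 x hx2⟩
    ⟨ψ (ψ x), hψ2 _ (hψ2 x hx2)⟩
    (fun e => hx1 (congrArg Subtype.val e).symm)
    (fun e => hψ1 x hx1 (congrArg Subtype.val e).symm)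
    (fun e => hψ1 _ (hψ1 x hx1) (congrArg Subtype.val e).symm)
    (fun e => h1 (congrArg Subtype.val e).symm)
    (fun e => h2 (congrArg Subtype.val e).symm)
    (fun e => h1 (ψ.injective (congrArg Subtype.val e)).symm)
    ⟨y, hy⟩
  rcases h4 with h | h | h | h
  · exact Or.inl (congrArg Subtype.val h)
  · exact Or.inr (Or.inl (congrArg Subtype.val h))
  · exact Or.inr (Or.inr (Or.inl (congrArg Subtype.val h)))
  · exact Or.inr (Or.inr (Or.inr (congrArg Subtype.val h)))

/-- The abelian case: the group is homocyclic of rank two. -/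
theorem abelian_case {T : Type u} [Group T] [Finite T] (hT : IsPGroup 2 T)
    (hab : ∀ x y : T, x * y = y * x)
    (hcard : Nat.card {x : T // x * x = 1} = 4) (ψ : MulAut T)
    (hmove : ∀ x : T, x ≠ 1 → x * x = 1 → ψ x ≠ x) :
    ∃ n : ℕ, 1 ≤ n ∧ Nonempty (T ≃* Multiplicative (ZMod (2 ^ n) × ZMod (2 ^ n))) := by
  haveI : Fact (Nat.Prime 2) := ⟨Nat.prime_two⟩
  obtain ⟨x, hxmax⟩ := Finite.exists_max (fun a : T => orderOf a)
  obtain ⟨n, hn⟩ := IsPGroup.iff_orderOf.mp hT x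
  have hexp : ∀ a : T, a ^ (2 ^ n) = 1 := by
    intro a
    obtain ⟨m, hm⟩ := IsPGroup.iff_orderOf.mp hT a
    have h1 := hxmax a
    rw [hm, hn] at h1
    have h2 : m ≤ n := (Nat.pow_le_pow_iff_right (by norm_num)).mp h1
    rw [← orderOf_dvd_iff_pow_eq_one, hm]
    exact pow_dvd_pow 2 h2
  have hn1 : 1 ≤ n := by
    by_contra h0
    have h0' : n = 0 := by omega
    rw [h0', pow_zero] at hexp
    have hsub : ∀ a : T, a = 1 := fun a => by simpa using hexp a
    haveI : Subsingleton {x : T // x * x = 1} :=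
      ⟨fun a b => Subtype.ext (by rw [hsub a.1, hsub b.1])⟩
    have := Finite.card_le_one_iff_subsingleton.mpr
      (inferInstance : Subsingleton {x : T // x * x = 1})
    rw [hcard] at this
    omega
  obtain ⟨n', rfl⟩ : ∃ n', n = n' + 1 := ⟨n - 1, by omega⟩
  have hbound : Nat.card T ≤ 4 ^ (n' + 1) := by
    letI cg : CommGroup T := { ‹Group T› with mul_comm := hab }
    exact ab_card_bound (n' + 1) T hexp (le_of_eq hcard)
  obtain ⟨y, hy⟩ : ∃ y, ψ x = y := ⟨_, rfl⟩
  have hyord : orderOf y = 2 ^ (n' + 1) := by rw [← hy, MulEquiv.orderOf_eq, hn]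
  have key : ∀ i j : ℕ, x ^ i * y ^ j = 1 → x ^ i = 1 := by
    intro i j hij
    by_contra hne
    obtain ⟨m, hm1, hm2⟩ := exists_pow_involution hT hne
    rw [← pow_mul] at hm1 hm2
    have e1 := cyc_invol x n' hn (i * m) hm1 hm2
    have hyj : x ^ i = (y ^ j)⁻¹ := eq_inv_of_mul_eq_one_left hij
    have e2 : x ^ (i * m) = (y ^ (j * m))⁻¹ := by rw [pow_mul, hyj, inv_pow, ← pow_mul]
    have e3 : x ^ (i * m) = y ^ (j * m) := by
      have : (x ^ (i * m))⁻¹ = x ^ (i * m) := inv_eq_of_mul_eq_one_left hm2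
      rw [← this, e2, inv_inv]
    have hm1' : y ^ (j * m) ≠ 1 := e3 ▸ hm1
    have hm2' : y ^ (j * m) * y ^ (j * m) = 1 := e3 ▸ hm2
    have e4 := cyc_invol y n' hyord (j * m) hm1' hm2'
    have hfix : ψ (x ^ (i * m)) = x ^ (i * m) := by
      calc ψ (x ^ (i * m)) = ψ (x ^ (2 ^ n')) := by rw [e1]
        _ = y ^ (2 ^ n') := by rw [map_pow, hy]
        _ = y ^ (j * m) := e4.symm
        _ = x ^ (i * m) := e3.symm
    exact hmove _ hm1 hm2 hfix
  obtain ⟨N, hN⟩ : ∃ N, 2 ^ (n' + 1) = N := ⟨_, rfl⟩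
  have hxN : x ^ N = 1 := by rw [← hN, ← hn]; exact pow_orderOf_eq_one x
  have hyN : y ^ N = 1 := by rw [← hN, ← hyord]; exact pow_orderOf_eq_one y
  haveI : NeZero N := ⟨by rw [← hN]; positivity⟩
  let f : Multiplicative (ZMod N × ZMod N) →* T :=
    { toFun := fun p => x ^ (Multiplicative.toAdd p).1.val * y ^ (Multiplicative.toAdd p).2.val
      map_one' := by simp
      map_mul' := by
        intro p q
        show x ^ ((Multiplicative.toAdd p).1 + (Multiplicative.toAdd q).1).val *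
          y ^ ((Multiplicative.toAdd p).2 + (Multiplicative.toAdd q).2).val = _
        rw [ZMod.val_add, ZMod.val_add, ← pow_eq_pow_mod _ hxN, ← pow_eq_pow_mod _ hyN,
          pow_add, pow_add]
        obtain ⟨a, ha⟩ : ∃ a, (Multiplicative.toAdd p).1.val = a := ⟨_, rfl⟩
        obtain ⟨b, hb⟩ : ∃ b, (Multiplicative.toAdd q).1.val = b := ⟨_, rfl⟩
        obtain ⟨c, hc⟩ : ∃ c, (Multiplicative.toAdd p).2.val = c := ⟨_, rfl⟩
        obtain ⟨d, hd⟩ : ∃ d, (Multiplicative.toAdd q).2.val = d := ⟨_, rfl⟩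
        rw [ha, hb, hc, hd]
        calc x ^ a * x ^ b * (y ^ c * y ^ d) = x ^ a * (x ^ b * y ^ c) * y ^ d := by
              simp only [mul_assoc]
          _ = x ^ a * (y ^ c * x ^ b) * y ^ d := by rw [hab (x ^ b) (y ^ c)]
          _ = x ^ a * y ^ c * (x ^ b * y ^ d) := by simp only [mul_assoc] }
  have hf : ∀ p, f p = x ^ (Multiplicative.toAdd p).1.val * y ^ (Multiplicative.toAdd p).2.val :=
    fun p => rfl
  have hinj : Function.Injective f := by
    rw [injective_iff_map_eq_one]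
    intro p hp
    rw [hf] at hp
    have h1 := key _ _ hp
    have h2 : y ^ (Multiplicative.toAdd p).2.val = 1 := by rw [h1, one_mul] at hp; exact hp
    have hv1 : (Multiplicative.toAdd p).1.val = 0 := by
      have hd := orderOf_dvd_of_pow_eq_one h1
      rw [hn, hN] at hd
      exact Nat.eq_zero_of_dvd_of_lt hd (ZMod.val_lt _)
    have hv2 : (Multiplicative.toAdd p).2.val = 0 := by
      have hd := orderOf_dvd_of_pow_eq_one h2
      rw [hyord, hN] at hd
      exact Nat.eq_zero_of_dvd_of_lt hd (ZMod.val_lt _)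
    have e1 : (Multiplicative.toAdd p).1 = 0 := (ZMod.val_eq_zero _).mp hv1
    have e2 : (Multiplicative.toAdd p).2 = 0 := (ZMod.val_eq_zero _).mp hv2
    have e3 : Multiplicative.toAdd p = 0 := Prod.ext e1 e2
    exact congrArg Multiplicative.ofAdd e3
  have hcardM : Nat.card (Multiplicative (ZMod N × ZMod N)) = 4 ^ (n' + 1) := by
    have e4 : (4 : ℕ) = 2 * 2 := by norm_num
    rw [Nat.card_congr (Multiplicative.toAdd : Multiplicative (ZMod N × ZMod N) ≃ ZMod N × ZMod N),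
      Nat.card_prod, Nat.card_zmod, ← hN, e4, mul_pow]
  have hbij : Function.Bijective f :=
    hinj.bijective_of_nat_card_le (by rw [hcardM]; exact hbound)
  subst hN
  exact ⟨n' + 1, by omega, ⟨(MulEquiv.ofBijective f hbij).symm⟩⟩

/-- The main dichotomy: homocyclic of rank two, or a Suzuki 2-group with centre of order four. -/
theorem rank_two_main {T : Type u} [Group T] [Finite T] (hT : IsPGroup 2 T)
    (hci : ∀ x : T, x * x = 1 → x ∈ Subgroup.center T)
    (hcard : Nat.card {x : T // x * x = 1} = 4) (φ : MulAut T)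
    (htr : ∀ s t : T, s ≠ 1 → s * s = 1 → t ≠ 1 → t * t = 1 → ∃ k : ℕ, (φ ^ k) s = t) :
    (∃ n : ℕ, 1 ≤ n ∧ Nonempty (T ≃* Multiplicative (ZMod (2 ^ n) × ZMod (2 ^ n)))) ∨
    (∃ K : Subgroup (MulAut T), SD T K ∧ Nat.card (Subgroup.center T) = 4) := by
  classical
  have hinj : ∀ (k : MulAut T) (a b : T), k a = k b → a = b := fun k a b h => k.injective h
  have hsq : ∀ (k : MulAut T) (a : T), a * a = 1 → k a * k a = 1 :=
    fun k a h => by rw [← map_mul, h, map_one]
  have hne1 : ∀ (k : MulAut T) (a : T), a ≠ 1 → k a ≠ 1 :=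
    fun k a h e => h ((map_eq_one_iff k k.injective).mp e)
  have hφ1 : ∀ s : T, s ≠ 1 → s * s = 1 → φ s ≠ s := by
    intro s hs1 hs2 hfix
    obtain ⟨t, ht1, ht2, -⟩ := avoid3 hcard ⟨1, mul_one 1⟩ ⟨s, hs2⟩ ⟨s, hs2⟩
    obtain ⟨k, hk⟩ := htr s t.1 hs1 hs2 (fun e => ht1 (Subtype.ext e)) t.2
    have hall : ∀ j : ℕ, (φ ^ j) s = s := by
      intro j
      induction j with
      | zero => rfl
      | succ j ih => rw [pow_succ, MulAut.mul_apply, hfix, ih]
    rw [hall k] at hk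
    exact ht2 (Subtype.ext hk.symm)
  have hφ2 : ∀ s : T, s ≠ 1 → s * s = 1 → φ (φ s) ≠ s := by
    intro s hs1 hs2 hfix
    obtain ⟨t, ht1, ht2, ht3⟩ := avoid3 hcard ⟨1, mul_one 1⟩ ⟨s, hs2⟩ ⟨φ s, hsq φ s hs2⟩
    obtain ⟨k, hk⟩ := htr s t.1 hs1 hs2 (fun e => ht1 (Subtype.ext e)) t.2
    have hall : ∀ j : ℕ, (φ ^ j) s = s ∨ (φ ^ j) s = φ s := by
      intro j
      induction j with
      | zero => exact Or.inl rfl
      | succ j ih =>
        rw [pow_succ', MulAut.mul_apply]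
        rcases ih with h | h
        · rw [h]; exact Or.inr rfl
        · rw [h, hfix]; exact Or.inl rfl
    rcases hall k with h | h
    · rw [h] at hk; exact ht2 (Subtype.ext hk.symm)
    · rw [h] at hk; exact ht3 (Subtype.ext hk.symm)
  have hφ3 : ∀ s : T, s * s = 1 → φ (φ (φ s)) = s := by
    intro s hs2
    by_cases hs1 : s = 1
    · rw [hs1, map_one, map_one, map_one]
    have h1 := hφ1 s hs1 hs2
    have h2 := hφ2 s hs1 hs2
    rcases orbit3 hcard φ s hs1 hs2 h1 h2 (φ (φ (φ s)))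
      (hsq φ _ (hsq φ _ (hsq φ s hs2))) with h | h | h | h
    · exact absurd h (hne1 φ _ (hne1 φ _ (hne1 φ s hs1)))
    · exact h
    · exact absurd (hinj φ _ _ h) h2
    · exact absurd (hinj φ _ _ (hinj φ _ _ h)) h1
  have hφ3j : ∀ (j : ℕ) (s : T), s * s = 1 → (φ ^ (3 * j)) s = s := by
    intro j
    induction j with
    | zero => intro s _; rfl
    | succ j ih =>
      intro s hs2
      have e : 3 * (j + 1) = 3 * j + 3 := by ring
      rw [e, pow_add, MulAut.mul_apply, pow3_apply, hφ3 s hs2, ih s hs2]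
  haveI : Finite (MulAut T) :=
    Finite.of_injective (fun k : MulAut T => (k : T → T)) DFunLike.coe_injective
  obtain ⟨a, b, hb, hab⟩ := Nat.exists_eq_pow_mul_and_not_dvd (orderOf_pos φ).ne' 3 (by norm_num)
  obtain ⟨ψ, hψ⟩ : ∃ ψ, φ ^ b = ψ := ⟨_, rfl⟩
  have hψ3a : ψ ^ (3 ^ a) = 1 := by
    rw [← hψ, ← pow_mul, mul_comm, ← hab]; exact pow_orderOf_eq_one φ
  have hψfix : ∀ s : T, s * s = 1 → ψ (ψ (ψ s)) = s := by
    intro s hs2
    rw [← pow3_apply, ← hψ, ← pow_mul, mul_comm]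
    exact hφ3j b s hs2
  have hψmove : ∀ s : T, s ≠ 1 → s * s = 1 → ψ s ≠ s := by
    intro s hs1 hs2
    have hr : b % 3 = 1 ∨ b % 3 = 2 := by
      have : b % 3 ≠ 0 := fun h => hb (Nat.dvd_of_mod_eq_zero h)
      omega
    have e : ψ s = (φ ^ (b % 3)) s := by
      have e1 : φ ^ b = φ ^ (b % 3) * φ ^ (3 * (b / 3)) := by
        rw [← pow_add]; congr 1; omega
      rw [← hψ, e1, MulAut.mul_apply, hφ3j _ s hs2]
    rw [e]
    rcases hr with h | h
    · rw [h, pow_one]; exact hφ1 s hs1 hs2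
    · rw [h, pow_two, MulAut.mul_apply]; exact hφ2 s hs1 hs2
  have htd : TD T ψ := ⟨inferInstance, hT, hci, hcard, hψmove, hψfix⟩
  have hψ3 : ψ ^ 3 = 1 := htd.cube a hψ3a
  by_cases hab : ∀ x y : T, x * y = y * x
  · left
    exact abelian_case hT hab hcard ψ hψmove
  · right
    push Not at hab
    obtain ⟨x₀, y₀, hxy⟩ := hab
    obtain ⟨s₀, hs₀1, -, -⟩ := avoid3 hcard ⟨1, mul_one 1⟩ ⟨1, mul_one 1⟩ ⟨1, mul_one 1⟩
    have hs1 : s₀.1 ≠ 1 := fun e => hs₀1 (Subtype.ext e)
    have hs2 : s₀.1 * s₀.1 = 1 := s₀.2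
    have hKmem : ∀ k ∈ Subgroup.zpowers ψ, k = 1 ∨ k = ψ ∨ k = ψ * ψ := by
      intro k hk
      obtain ⟨i, rfl⟩ := Subgroup.mem_zpowers_iff.mp hk
      have h3 : ψ ^ (3 : ℤ) = 1 := by exact_mod_cast hψ3
      rw [zpow_eq_zpow_emod i h3]
      have hr1 : 0 ≤ i % 3 := Int.emod_nonneg i (by norm_num)
      have hr2 : i % 3 < 3 := Int.emod_lt_of_pos i (by norm_num)
      obtain ⟨r, hr⟩ : ∃ r, i % 3 = r := ⟨_, rfl⟩
      rw [hr] at hr1 hr2 ⊢
      interval_cases r
      · left; exact zpow_zero ψ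
      · right; left; exact zpow_one ψ
      · right; right; exact zpow_two ψ
    have hSD : SD T (Subgroup.zpowers ψ) := by
      refine ⟨inferInstance, hT, ?_, ?_, ?_, ?_, ⟨x₀, y₀, hxy⟩⟩
      · intro a ha b hb
        obtain ⟨i, rfl⟩ := Subgroup.mem_zpowers_iff.mp ha
        obtain ⟨j, rfl⟩ := Subgroup.mem_zpowers_iff.mp hb
        rw [← zpow_add, ← zpow_add, add_comm]
      · intro x y hx1 hx2 hy1 hy2
        have h1 := hψmove x hx1 hx2
        have h2 : ψ (ψ x) ≠ x := by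
          intro e
          have := hψfix x hx2
          rw [e] at this
          exact h1 this
        rcases orbit3 hcard ψ x hx1 hx2 h1 h2 y hy2 with h | h | h | h
        · exact absurd h hy1
        · exact ⟨1, one_mem _, h.symm⟩
        · exact ⟨ψ, Subgroup.mem_zpowers ψ, h.symm⟩
        · exact ⟨ψ * ψ, mul_mem (Subgroup.mem_zpowers ψ) (Subgroup.mem_zpowers ψ), h.symm⟩
      · intro k hk x hx1 hx2 hkx
        rcases hKmem k hk with h | h | h
        · exact h
        · rw [h] at hkx; exact absurd hkx (hψmove x hx1 hx2)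
        · rw [h] at hkx
          exfalso
          have h3 := hψfix x hx2
          have hkx' : ψ (ψ x) = x := hkx
          rw [hkx'] at h3
          exact hψmove x hx1 hx2 h3
      · exact ⟨s₀.1, ψ s₀.1, fun e => hψmove _ hs1 hs2 e.symm, hs1, hs2, hne1 ψ _ hs1,
          hsq ψ _ hs2⟩
    refine ⟨Subgroup.zpowers ψ, hSD, ?_⟩
    rw [← hcard]
    exact Nat.card_congr (Equiv.subtypeEquivRight (fun x => ⟨hSD.hce x, hci x⟩))

end Cfsg.Agent.Lib.Helper45.Hig
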