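import Mathlib

set_option autoImplicit false

namespace Cfsg.Agent.Lib.Helper45

open Matrix

/-- A quadratic map on `ι → K` vanishing on the standard basis vectors and on sums of two of them
is zero. -/
theorem quadMap_eq_zero_of_basis {K ι : Type*} [Field K] [Fintype ι] [DecidableEq ι]
    (N : QuadraticMap K (ι → K) K)
    (h1 : ∀ i, N (Pi.single i 1) = 0)
    (h2 : ∀ i j, N (Pi.single i 1 + Pi.single j 1) = 0) (v : ι → K) : N v = 0 := by
  have hpol : ∀ i j, QuadraticMap.polar N (Pi.single i (1 : K)) (Pi.single j (1 : K)) = 0 := by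
    intro i j
    simp [QuadraticMap.polar, h1, h2]
  have hsingle : ∀ (i : ι) (x : K), (Pi.single i x : ι → K) = x • Pi.single i (1 : K) := by
    intro i x
    rw [← Pi.single_smul, smul_eq_mul, mul_one]
  have hpolB : ∀ v w : ι → K, QuadraticMap.polar N v w = 0 := by
    have : N.polarBilin = 0 := by
      apply LinearMap.pi_ext
      intro i x
      apply LinearMap.pi_ext
      intro j y
      simp only [QuadraticMap.polarBilin_apply_apply, LinearMap.zero_apply]
      rw [hsingle i x, hsingle j y, QuadraticMap.polar_smul_left, QuadraticMap.polar_smul_right,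
        hpol, smul_zero, smul_zero]
    intro v w
    have h := congrArg (fun B => B v w) this
    simpa using h
  have hadd : ∀ v w : ι → K, N (v + w) = N v + N w := by
    intro v w
    have := hpolB v w
    unfold QuadraticMap.polar at this
    linear_combination this
  have hsum : ∀ (s : Finset ι) (x : ι → ι → K), N (∑ i ∈ s, x i) = ∑ i ∈ s, N (x i) := by
    intro s x
    induction s using Finset.induction_on with
    | empty => simp
    | insert i s hi ih => rw [Finset.sum_insert hi, Finset.sum_insert hi, hadd, ih]
  rw [← Finset.univ_sum_single v, hsum]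
  apply Finset.sum_eq_zero
  intro i _
  rw [hsingle i (v i), QuadraticMap.map_smul, h1, smul_zero]

/-- Base change of isometries: if `QK` is a quadratic form over `K` extending the function `QF`
over `F` along `f : F →+* K`, then a matrix over `F` preserving `QF` preserves `QK` after mapping
its entries. -/
theorem isometry_baseChange {F K ι : Type*} [Field F] [Field K] [Fintype ι] [DecidableEq ι]
    (f : F →+* K) (QF : (ι → F) → F) (QK : QuadraticMap K (ι → K) K)
    (hQ : ∀ u : ι → F, QK (f ∘ u) = f (QF u)) (g : Matrix ι ι F)
    (hg : ∀ u, QF (g *ᵥ u) = QF u) (v : ι → K) : QK ((g.map f) *ᵥ v) = QK v := by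
  set N : QuadraticMap K (ι → K) K := QK.comp (Matrix.toLin' (g.map f)) - QK with hN
  have hNapp : ∀ w, N w = QK ((g.map f) *ᵥ w) - QK w := by
    intro w
    simp [hN, QuadraticMap.comp_apply, Matrix.toLin'_apply]
  have hvan : ∀ u : ι → F, N (f ∘ u) = 0 := by
    intro u
    rw [hNapp]
    have : (g.map f) *ᵥ (f ∘ u) = f ∘ (g *ᵥ u) := by
      funext i
      exact (RingHom.map_mulVec f g u i).symm
    rw [this, hQ, hQ, hg, sub_self]
  have hs : ∀ i : ι, (Pi.single i (1 : K) : ι → K) = f ∘ (Pi.single i (1 : F)) := by
    intro i
    funext j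
    by_cases h : j = i
    · subst h; simp
    · simp [Pi.single_eq_of_ne h]
  have h1 : ∀ i, N (Pi.single i 1) = 0 := by
    intro i
    rw [hs i]; exact hvan _
  have h2 : ∀ i j, N (Pi.single i 1 + Pi.single j 1) = 0 := by
    intro i j
    have : (Pi.single i (1 : K) + Pi.single j (1 : K) : ι → K) =
        f ∘ (Pi.single i (1 : F) + Pi.single j (1 : F)) := by
      rw [hs i, hs j]
      funext l
      simp
    rw [this]; exact hvan _
  have := quadMap_eq_zero_of_basis N h1 h2 v
  rw [hNapp] at this
  exact sub_eq_zero.mp this

end Cfsg.Agent.Lib.Helper45
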