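import Mathlib
import Cfsg.Prelude.Def_ClassicalGeometry
import Cfsg.Agent.Lib.Helper45.BinRot
import Cfsg.Agent.Lib.Helper5.Tri
import Cfsg.Agent.S0286

set_option autoImplicit false

namespace Cfsg.Agent.Lib.Helper45

open Matrix

section SO33

variable {F : Type*} [Field F]

/-- The ternary form `x₀² + x₁ x₂` on `Fin 3 → F`. -/
def q3 (w : Fin 3 → F) : F := w 0 ^ 2 + w 1 * w 2

/-- The reindexing of the coordinates of `quadFormOdd 1`. -/
def e3 : Fin 3 ≃ Unit ⊕ (Fin 1 ⊕ Fin 1) where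
  toFun := ![Sum.inl (), Sum.inr (Sum.inl 0), Sum.inr (Sum.inr 0)]
  invFun := Sum.elim (fun _ => 0) (Sum.elim (fun _ => 1) (fun _ => 2))
  left_inv := by
    intro i
    fin_cases i <;> rfl
  right_inv := by
    rintro (_ | _ | _)
    · rfl
    · simp [Fin.fin_one_eq_zero]
    · simp [Fin.fin_one_eq_zero]

theorem quadFormOdd_one_eq (v : Unit ⊕ (Fin 1 ⊕ Fin 1) → F) :
    Cfsg.quadFormOdd 1 F v = q3 (fun i => v (e3 i)) := by
  simp [Cfsg.quadFormOdd, q3, e3]

/-- diag(1, -1, -1). -/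
def so3A : Matrix (Fin 3) (Fin 3) F := !![1, 0, 0; 0, -1, 0; 0, 0, -1]
/-- An element of order 3. -/
def so3B : Matrix (Fin 3) (Fin 3) F := !![-1, 0, 1; 0, 0, -1; 1, -1, 1]

theorem so3A_det : (so3A : Matrix (Fin 3) (Fin 3) F).det = 1 := by
  rw [Matrix.det_fin_three]
  simp [so3A]

theorem so3B_det [CharP F 3] : (so3B : Matrix (Fin 3) (Fin 3) F).det = 1 := by
  rw [Matrix.det_fin_three]
  simp [so3B]

theorem so3A_q3 (w : Fin 3 → F) : q3 (so3A *ᵥ w) = q3 w := by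
  simp [q3, so3A, Matrix.mulVec, dotProduct, Fin.sum_univ_three]

theorem so3B_q3 [CharP F 3] (w : Fin 3 → F) : q3 (so3B *ᵥ w) = q3 w := by
  simp [q3, so3B, Matrix.mulVec, dotProduct, Fin.sum_univ_three]
  grind

theorem so3A_sq : (so3A : Matrix (Fin 3) (Fin 3) F) * so3A = 1 := by
  ext i j
  fin_cases i <;> fin_cases j <;> simp [so3A, Matrix.mul_apply, Fin.sum_univ_three]

theorem so3B_cube [CharP F 3] : (so3B : Matrix (Fin 3) (Fin 3) F) * so3B * so3B = 1 := by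
  ext i j
  fin_cases i <;> fin_cases j <;> simp [so3B, Matrix.mul_apply, Fin.sum_univ_three] <;> grind

theorem so3AB_four [CharP F 3] :
    (so3A : Matrix (Fin 3) (Fin 3) F) * so3B * (so3A * so3B) * (so3A * so3B * (so3A * so3B)) = 1 := by
  ext i j
  fin_cases i <;> fin_cases j <;> simp [so3A, so3B, Matrix.mul_apply, Fin.sum_univ_three] <;> grind

theorem so3AB_sq_ne [CharP F 3] :
    (so3A : Matrix (Fin 3) (Fin 3) F) * so3B * (so3A * so3B) ≠ 1 := by
  intro h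
  have h1 := congrFun (congrFun h 0) 2
  simp [so3A, so3B, Matrix.mul_apply, Fin.sum_univ_three] at h1
  grind

/-- An element of `SO(quadFormOdd 1)` from a `3 × 3` matrix. -/
def mkSO3 (M : Matrix (Fin 3) (Fin 3) F) (hdet : M.det = 1) (hQ : ∀ w, q3 (M *ᵥ w) = q3 w) :
    ↥(Cfsg.specialIsometryGroup F (Cfsg.quadFormOdd 1 F)) :=
  ⟨⟨Matrix.GeneralLinearGroup.mkOfDetNeZero (M.submatrix e3.symm e3.symm)
      (by rw [Matrix.det_submatrix_equiv_self, hdet]; exact one_ne_zero), by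
      rw [mem_isometryGroup_iff]
      intro u
      show Cfsg.quadFormOdd 1 F ((M.submatrix e3.symm e3.symm) *ᵥ u) = _
      rw [quadFormOdd_one_eq, quadFormOdd_one_eq, Matrix.submatrix_mulVec_equiv]
      have h := hQ (fun i => u (e3 i))
      convert h using 2
      funext i
      simp [Function.comp]
      rfl⟩, by
    show Matrix.GeneralLinearGroup.det (Matrix.GeneralLinearGroup.mkOfDetNeZero
      (M.submatrix e3.symm e3.symm) _) = 1
    apply Units.ext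
    show (M.submatrix e3.symm e3.symm).det = 1
    rw [Matrix.det_submatrix_equiv_self, hdet]⟩

theorem mkSO3_mul (M N : Matrix (Fin 3) (Fin 3) F) (hM hN hM' hN' hMN hMN') :
    mkSO3 M hM hM' * mkSO3 N hN hN' = mkSO3 (M * N) hMN hMN' := by
  apply Subtype.ext
  apply Subtype.ext
  apply Units.ext
  show M.submatrix e3.symm e3.symm * N.submatrix e3.symm e3.symm = (M * N).submatrix e3.symm e3.symm
  rw [Matrix.submatrix_mul_equiv]

theorem mkSO3_congr {M N : Matrix (Fin 3) (Fin 3) F} (h : M = N) (hM hM' hN hN') :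
    mkSO3 M hM hM' = mkSO3 N hN hN' := by
  subst h
  rfl

theorem mkSO3_one (h1 h2) :
    mkSO3 (1 : Matrix (Fin 3) (Fin 3) F) h1 h2 = 1 := by
  apply Subtype.ext
  apply Subtype.ext
  apply Units.ext
  show (1 : Matrix (Fin 3) (Fin 3) F).submatrix e3.symm e3.symm = 1
  rw [Matrix.submatrix_one_equiv]

theorem mkSO3_eq_one_iff (M : Matrix (Fin 3) (Fin 3) F) (hM hM') :
    mkSO3 M hM hM' = 1 ↔ M = 1 := by
  constructor
  · intro h
    have h1 : (M.submatrix e3.symm e3.symm) = 1 :=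
      congrArg (fun x : ↥(Cfsg.specialIsometryGroup F (Cfsg.quadFormOdd 1 F)) =>
        ((x.1.1 : GL (Unit ⊕ (Fin 1 ⊕ Fin 1)) F) :
          Matrix (Unit ⊕ (Fin 1 ⊕ Fin 1)) (Unit ⊕ (Fin 1 ⊕ Fin 1)) F)) h
    have h2 := congrArg (fun X => X.submatrix e3 e3) h1
    simpa using h2
  · intro h
    subst h
    exact mkSO3_one _ _

variable [Fintype F]

/-- `SO₃(3) ≅ S₄`. -/
theorem so33_equiv_perm (hF : Fintype.card F = 3) :
    Nonempty (↥(Cfsg.specialIsometryGroup F (Cfsg.quadFormOdd 1 F)) ≃* Equiv.Perm (Fin 4)) := by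
  classical
  have hp : Fact (Nat.Prime 3) := ⟨Nat.prime_three⟩
  have hch : CharP F 3 := charP_of_card_eq_prime hF
  have h2 : (2 : F) ≠ 0 := by
    intro h
    have h3 : (3 : F) = 0 := by exact_mod_cast CharP.cast_eq_zero F 3
    have : (1 : F) = 0 := by linear_combination h3 - h
    exact one_ne_zero this
  -- the order of the isometry group
  have hO : Nat.card (Cfsg.isometryGroup F (Cfsg.quadFormOdd 1 F)) = 48 := by
    rw [Cfsg.Agent.S0286.result hF (by decide) 1]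
    norm_num
  have hfinO : Finite (Cfsg.isometryGroup F (Cfsg.quadFormOdd 1 F)) :=
    Nat.finite_of_card_ne_zero (by rw [hO]; norm_num)
  -- `-1` is an isometry of determinant `-1`
  have hneg : (-1 : GL (Unit ⊕ (Fin 1 ⊕ Fin 1)) F) ∈ Cfsg.isometryGroup F (Cfsg.quadFormOdd 1 F) := by
    rw [mem_isometryGroup_iff]
    intro u
    show Cfsg.quadFormOdd 1 F ((-1 : Matrix _ _ F) *ᵥ u) = _
    rw [Matrix.neg_mulVec, Matrix.one_mulVec]
    simp [Cfsg.quadFormOdd]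
  have hnotSO : (⟨-1, hneg⟩ : Cfsg.isometryGroup F (Cfsg.quadFormOdd 1 F)) ∉
      Cfsg.specialIsometryGroup F (Cfsg.quadFormOdd 1 F) := by
    intro hmem
    have h1 : Matrix.GeneralLinearGroup.det (-1 : GL (Unit ⊕ (Fin 1 ⊕ Fin 1)) F) = 1 := hmem
    have h3 : ((-1 : Matrix (Unit ⊕ (Fin 1 ⊕ Fin 1)) (Unit ⊕ (Fin 1 ⊕ Fin 1)) F)).det = 1 :=
      congrArg Units.val h1
    rw [Matrix.det_neg, Matrix.det_one] at h3
    simp at h3
    have : (2 : F) = 0 := by linear_combination -h3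
    exact h2 this
  have hne_top : Cfsg.specialIsometryGroup F (Cfsg.quadFormOdd 1 F) ≠ ⊤ := by
    intro h
    exact hnotSO (h ▸ Subgroup.mem_top _)
  have hidx := Subgroup.card_mul_index (Cfsg.specialIsometryGroup F (Cfsg.quadFormOdd 1 F))
  rw [hO] at hidx
  have hidx2 : 2 ≤ (Cfsg.specialIsometryGroup F (Cfsg.quadFormOdd 1 F)).index := by
    have h1 : (Cfsg.specialIsometryGroup F (Cfsg.quadFormOdd 1 F)).index ≠ 1 :=
      fun h => hne_top (Subgroup.index_eq_one.mp h)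
    have h0 : (Cfsg.specialIsometryGroup F (Cfsg.quadFormOdd 1 F)).index ≠ 0 := by
      intro h
      rw [h, mul_zero] at hidx
      omega
    omega
  have hSOle : Nat.card ↥(Cfsg.specialIsometryGroup F (Cfsg.quadFormOdd 1 F)) ≤ 24 := by
    nlinarith
  -- the generators
  have hAdet := so3A_det (F := F)
  have hBdet := so3B_det (F := F)
  let a := mkSO3 (so3A : Matrix (Fin 3) (Fin 3) F) hAdet so3A_q3
  let b := mkSO3 (so3B : Matrix (Fin 3) (Fin 3) F) hBdet so3B_q3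
  have hqmul : ∀ (M N : Matrix (Fin 3) (Fin 3) F), (∀ w, q3 (M *ᵥ w) = q3 w) →
      (∀ w, q3 (N *ᵥ w) = q3 w) → ∀ w, q3 ((M * N) *ᵥ w) = q3 w := by
    intro M N hM hN w
    rw [← Matrix.mulVec_mulVec, hM, hN]
  have hdmul : ∀ (M N : Matrix (Fin 3) (Fin 3) F), M.det = 1 → N.det = 1 → (M * N).det = 1 := by
    intro M N hM hN
    rw [Matrix.det_mul, hM, hN, one_mul]
  have ha : a ^ 2 = 1 := by
    rw [pow_two]
    show mkSO3 so3A hAdet so3A_q3 * mkSO3 so3A hAdet so3A_q3 = 1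
    rw [mkSO3_mul _ _ _ _ _ _ (hdmul _ _ hAdet hAdet) (hqmul _ _ so3A_q3 so3A_q3),
      mkSO3_eq_one_iff]
    exact so3A_sq
  have hb : b ^ 3 = 1 := by
    rw [pow_succ, pow_two]
    show mkSO3 so3B hBdet so3B_q3 * mkSO3 so3B hBdet so3B_q3 * mkSO3 so3B hBdet so3B_q3 = 1
    rw [mkSO3_mul _ _ _ _ _ _ (hdmul _ _ hBdet hBdet) (hqmul _ _ so3B_q3 so3B_q3),
      mkSO3_mul _ _ _ _ _ _ (hdmul _ _ (hdmul _ _ hBdet hBdet) hBdet)
        (hqmul _ _ (hqmul _ _ so3B_q3 so3B_q3) so3B_q3),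
      mkSO3_eq_one_iff]
    exact so3B_cube
  have hABd := hdmul _ _ hAdet hBdet
  have hABq := hqmul _ _ (so3A_q3 (F := F)) so3B_q3
  have hab_eq : a * b = mkSO3 (so3A * so3B) hABd hABq := mkSO3_mul _ _ _ _ _ _ _ _
  have hab2_eq : (a * b) ^ 2 = mkSO3 (so3A * so3B * (so3A * so3B)) (hdmul _ _ hABd hABd)
      (hqmul _ _ hABq hABq) := by
    rw [pow_two, hab_eq, mkSO3_mul]
  have hab : (a * b) ^ 4 = 1 := by
    have e : (a * b) ^ 4 = (a * b) ^ 2 * (a * b) ^ 2 := by rw [← pow_add]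
    rw [e, hab2_eq, mkSO3_mul _ _ _ _ _ _ (hdmul _ _ (hdmul _ _ hABd hABd) (hdmul _ _ hABd hABd))
      (hqmul _ _ (hqmul _ _ hABq hABq) (hqmul _ _ hABq hABq)), mkSO3_eq_one_iff]
    exact so3AB_four
  have hne : (a * b) ^ 2 ≠ 1 := by
    rw [hab2_eq, Ne, mkSO3_eq_one_iff]
    exact so3AB_sq_ne
  obtain ⟨H, ⟨eH⟩⟩ := Cfsg.Agent.Lib.Helper5.Tri.exists_S4_subgroup a b ha hb hab hne
  have hHcard : Nat.card ↥H = 24 := by
    rw [Nat.card_congr eH.toEquiv, Nat.card_eq_fintype_card, Fintype.card_perm, Fintype.card_fin]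
    rfl
  have hHtop : H = ⊤ := by
    apply Subgroup.eq_top_of_le_card
    rw [hHcard]
    exact hSOle
  exact ⟨(Subgroup.topEquiv.symm.trans (MulEquiv.subgroupCongr hHtop.symm)).trans eH⟩

end SO33

end Cfsg.Agent.Lib.Helper45
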