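import Mathlib
import Cfsg.Prelude.Def_ClassicalGeometry
import Cfsg.Agent.Lib.Helper45.Planes

set_option autoImplicit false

namespace Cfsg.Agent.Lib.Helper45

open Module Matrix

section Symp

variable {F : Type*} [Field F] (m : ℕ)

theorem symp_add_left (u u' v : Fin m ⊕ Fin m → F) :
    Cfsg.sympForm m F (u + u') v = Cfsg.sympForm m F u v + Cfsg.sympForm m F u' v := by
  unfold Cfsg.sympForm; rw [add_dotProduct]

theorem symp_smul_left (c : F) (u v : Fin m ⊕ Fin m → F) :
    Cfsg.sympForm m F (c • u) v = c * Cfsg.sympForm m F u v := by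
  unfold Cfsg.sympForm; rw [smul_dotProduct, smul_eq_mul]

theorem symp_add_right (u v v' : Fin m ⊕ Fin m → F) :
    Cfsg.sympForm m F u (v + v') = Cfsg.sympForm m F u v + Cfsg.sympForm m F u v' := by
  unfold Cfsg.sympForm; rw [Matrix.mulVec_add, dotProduct_add]

theorem symp_smul_right (c : F) (u v : Fin m ⊕ Fin m → F) :
    Cfsg.sympForm m F u (c • v) = c * Cfsg.sympForm m F u v := by
  unfold Cfsg.sympForm; rw [Matrix.mulVec_smul, dotProduct_smul, smul_eq_mul]

theorem symp_J_inl (u : Fin m ⊕ Fin m → F) (i : Fin m) :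
    (Matrix.J (Fin m) F *ᵥ u) (Sum.inl i) = - u (Sum.inr i) := by
  simp [Matrix.J, Matrix.fromBlocks_mulVec, Matrix.neg_mulVec]

theorem symp_J_inr (u : Fin m ⊕ Fin m → F) (i : Fin m) :
    (Matrix.J (Fin m) F *ᵥ u) (Sum.inr i) = u (Sum.inl i) := by
  simp [Matrix.J, Matrix.fromBlocks_mulVec]

theorem symp_self (u : Fin m ⊕ Fin m → F) : Cfsg.sympForm m F u u = 0 := by
  unfold Cfsg.sympForm
  rw [dotProduct, Fintype.sum_sum_type]
  simp only [symp_J_inl, symp_J_inr]
  rw [← Finset.sum_add_distrib]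
  apply Finset.sum_eq_zero
  intro i _
  ring

theorem symp_swap (u v : Fin m ⊕ Fin m → F) :
    Cfsg.sympForm m F v u = - Cfsg.sympForm m F u v := by
  have h := symp_self m (u + v)
  rw [symp_add_left, symp_add_right, symp_add_right, symp_self, symp_self] at h
  linear_combination h

theorem symp_exists_ne {u : Fin m ⊕ Fin m → F} (hu : u ≠ 0) :
    ∃ w, Cfsg.sympForm m F w u ≠ 0 := by
  classical
  have : ∃ k, u k ≠ 0 := by
    by_contra hne
    apply hu
    funext k
    by_contra hk
    exact hne ⟨k, hk⟩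
  obtain ⟨k, hk⟩ := this
  rcases k with i | i
  · refine ⟨Pi.single (Sum.inr i) 1, ?_⟩
    unfold Cfsg.sympForm
    rw [single_one_dotProduct, symp_J_inr]
    exact hk
  · refine ⟨Pi.single (Sum.inl i) 1, ?_⟩
    unfold Cfsg.sympForm
    rw [single_one_dotProduct, symp_J_inl]
    exact neg_ne_zero.mpr hk

theorem symp_good_iff (u v : Fin m ⊕ Fin m → F) :
    (∀ x ∈ Submodule.span F {u, v}, ∀ y ∈ Submodule.span F {u, v}, Cfsg.sympForm m F x y = 0) ↔
      Cfsg.sympForm m F v u = 0 := by
  rw [span_pair_forall (R := fun x y : Fin m ⊕ Fin m → F => Cfsg.sympForm m F x y = 0)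
    (fun a b c h1 h2 => by rw [symp_add_left, h1, h2, add_zero])
    (fun c a b h1 => by rw [symp_smul_left, h1, mul_zero])
    (fun a b c h1 h2 => by rw [symp_add_right, h1, h2, add_zero])
    (fun c a b h1 => by rw [symp_smul_right, h1, mul_zero])]
  constructor
  · rintro ⟨_, _, h, _⟩
    exact h
  · intro h
    refine ⟨symp_self m u, ?_, h, symp_self m v⟩
    rw [symp_swap m v u, h, neg_zero]

variable [Fintype F]

/-- The hyperplane `u^⊥` with the line `F u` removed. -/
theorem symp_card_perp_sdiff {u : Fin m ⊕ Fin m → F} (hu : u ≠ 0) :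
    Nat.card {v : Fin m ⊕ Fin m → F // v ∉ Submodule.span F {u} ∧ Cfsg.sympForm m F v u = 0} *
      Fintype.card F + Fintype.card F ^ 2 = Fintype.card F ^ (2 * m) := by
  classical
  obtain ⟨w, hw⟩ := symp_exists_ne m hu
  have h1 := card_hyperplane (F := F) (fun v : Fin m ⊕ Fin m → F => Cfsg.sympForm m F v u)
    (fun x y => symp_add_left m x y u) (fun c x => symp_smul_left m c x u) w hw 0
  have hV : Nat.card (Fin m ⊕ Fin m → F) = Fintype.card F ^ (2 * m) := by
    rw [Nat.card_eq_fintype_card, Fintype.card_fun, Fintype.card_sum, Fintype.card_fin, two_mul]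
  rw [hV] at h1
  have h2 := card_sdiff_span_set (F := F) {v : Fin m ⊕ Fin m → F | Cfsg.sympForm m F v u = 0} hu
    (by
      intro a
      show Cfsg.sympForm m F (a • u) u = 0
      rw [symp_smul_left, symp_self, mul_zero])
  have h3 : Nat.card {v : Fin m ⊕ Fin m → F // v ∉ Submodule.span F {u} ∧ Cfsg.sympForm m F v u = 0} =
      Nat.card {v : Fin m ⊕ Fin m → F // Cfsg.sympForm m F v u = 0} - Fintype.card F := h2
  have h4 : Fintype.card F ≤ Nat.card {v : Fin m ⊕ Fin m → F // Cfsg.sympForm m F v u = 0} := by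
    rw [← card_span_singleton' (F := F) hu]
    apply Nat.card_le_card_of_injective
      (fun x : Submodule.span F {u} => (⟨x.1, by
        obtain ⟨a, ha⟩ := Submodule.mem_span_singleton.mp x.2
        rw [← ha, symp_smul_left, symp_self, mul_zero]⟩ :
        {v : Fin m ⊕ Fin m → F // Cfsg.sympForm m F v u = 0}))
    intro x y hxy
    have hxy' : (x : Fin m ⊕ Fin m → F) = y := Subtype.mk.inj hxy
    exact Subtype.ext hxy'
  rw [h3, Nat.sub_mul, ← h1, sq]
  have h5 := Nat.mul_le_mul_right (Fintype.card F) h4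
  omega

end Symp

end Cfsg.Agent.Lib.Helper45
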